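import Cfsg.Agent.Lib.SporRecognition.J4Rep.Rep

/-! The relators of the presentation hold for the matrices. -/

set_option autoImplicit false
set_option maxRecDepth 100000
set_option Elab.async false
set_option linter.unusedSimpArgs false
set_option linter.unusedTactic false
set_option linter.unreachableTactic false

namespace CfsgLib.SporRecognition.J4Rep

open Cfsg.Spor.J4

attribute [local irreducible] mul one mat okB ent matX invX matY invY matT invT pw2 pw3 pw4 pw5 pw6 pw8 pw12 pw23 img Rep

theorem rel7 : FreeGroup.lift img (t ^ 2) = 1 := by
  simp only [map_mul, map_pow, map_inv, FreeGroup.lift_apply_of, mul_inv_rev, inv_inv, ← inv_pow]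
  apply eq_one_of_rep
  case ha =>
    repeat' first
      | with_reducible exact rep_x | with_reducible exact rep_xi | with_reducible exact rep_y | with_reducible exact rep_yi | with_reducible exact rep_t | with_reducible exact rep_ti
      | with_reducible apply rep_pw23 | with_reducible apply rep_pw12 | with_reducible apply rep_pw8 | with_reducible apply rep_pw6 | with_reducible apply rep_pw5 | with_reducible apply rep_pw4 | with_reducible apply rep_pw3 | with_reducible apply rep_pw2
      | with_reducible apply rep_mul
  decide +kernel

theorem rel8 : FreeGroup.lift img (t⁻¹ * (y * x * y * ((x * (y⁻¹)) ^ 2) * ((x * y) ^ 3))⁻¹ * t * (y * x * y * ((x * (y⁻¹)) ^ 2) * ((x * y) ^ 3))) = 1 := by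
  simp only [map_mul, map_pow, map_inv, FreeGroup.lift_apply_of, mul_inv_rev, inv_inv, ← inv_pow]
  apply eq_one_of_rep
  case ha =>
    repeat' first
      | with_reducible exact rep_x | with_reducible exact rep_xi | with_reducible exact rep_y | with_reducible exact rep_yi | with_reducible exact rep_t | with_reducible exact rep_ti
      | with_reducible apply rep_pw23 | with_reducible apply rep_pw12 | with_reducible apply rep_pw8 | with_reducible apply rep_pw6 | with_reducible apply rep_pw5 | with_reducible apply rep_pw4 | with_reducible apply rep_pw3 | with_reducible apply rep_pw2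
      | with_reducible apply rep_mul
  decide +kernel

theorem rel9 : FreeGroup.lift img (t⁻¹ * x⁻¹ * t * x) = 1 := by
  simp only [map_mul, map_pow, map_inv, FreeGroup.lift_apply_of, mul_inv_rev, inv_inv, ← inv_pow]
  apply eq_one_of_rep
  case ha =>
    repeat' first
      | with_reducible exact rep_x | with_reducible exact rep_xi | with_reducible exact rep_y | with_reducible exact rep_yi | with_reducible exact rep_t | with_reducible exact rep_ti
      | with_reducible apply rep_pw23 | with_reducible apply rep_pw12 | with_reducible apply rep_pw8 | with_reducible apply rep_pw6 | with_reducible apply rep_pw5 | with_reducible apply rep_pw4 | with_reducible apply rep_pw3 | with_reducible apply rep_pw2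
      | with_reducible apply rep_mul
  decide +kernel

theorem rel10 : FreeGroup.lift img ((y * ((y * x * (y⁻¹) * x * y * x * (y⁻¹) * x)⁻¹ * t * (y * x * (y⁻¹) * x * y * x * (y⁻¹) * x))) ^ 3) = 1 := by
  simp only [map_mul, map_pow, map_inv, FreeGroup.lift_apply_of, mul_inv_rev, inv_inv, ← inv_pow]
  apply eq_one_of_rep
  case ha =>
    repeat' first
      | with_reducible exact rep_x | with_reducible exact rep_xi | with_reducible exact rep_y | with_reducible exact rep_yi | with_reducible exact rep_t | with_reducible exact rep_ti
      | with_reducible apply rep_pw23 | with_reducible apply rep_pw12 | with_reducible apply rep_pw8 | with_reducible apply rep_pw6 | with_reducible apply rep_pw5 | with_reducible apply rep_pw4 | with_reducible apply rep_pw3 | with_reducible apply rep_pw2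
      | with_reducible apply rep_mul
  decide +kernel

theorem rel11 : FreeGroup.lift img ((((y * x * y * x * y * x * y) ^ 3) * t * ((((x * y) ^ 3) * y * ((x * y) ^ 6) * y)⁻¹ * t * (((x * y) ^ 3) * y * ((x * y) ^ 6) * y))) ^ 2) = 1 := by
  simp only [map_mul, map_pow, map_inv, FreeGroup.lift_apply_of, mul_inv_rev, inv_inv, ← inv_pow]
  apply eq_one_of_rep
  case ha =>
    repeat' first
      | with_reducible exact rep_x | with_reducible exact rep_xi | with_reducible exact rep_y | with_reducible exact rep_yi | with_reducible exact rep_t | with_reducible exact rep_ti
      | with_reducible apply rep_pw23 | with_reducible apply rep_pw12 | with_reducible apply rep_pw8 | with_reducible apply rep_pw6 | with_reducible apply rep_pw5 | with_reducible apply rep_pw4 | with_reducible apply rep_pw3 | with_reducible apply rep_pw2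
      | with_reducible apply rep_mul
  decide +kernel

end CfsgLib.SporRecognition.J4Rep
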