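import Cfsg.Agent.Lib.SporRecognition.J4Rep.RelatorsA
import Cfsg.Agent.Lib.SporRecognition.J4Rep.RelatorsB

/-! A representation of degree 112 of the presented fourth Janko group. -/

set_option autoImplicit false
set_option maxRecDepth 100000
set_option linter.constructorNameAsVariable false

namespace CfsgLib.SporRecognition.J4Rep

attribute [local irreducible] mul one mat okB ent matX invX matY invY matT invT

theorem rels_hold : ∀ r ∈ Cfsg.Spor.coxRelators Cfsg.Spor.J4.edges ∪ {r | r ∈ Cfsg.Spor.J4.extra},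
    FreeGroup.lift img r = 1 := by
  rintro r (⟨a, ha, -⟩ | hr)
  · simp [Cfsg.Spor.J4.edges, Cfsg.Spor.coxNodes] at ha
  · simp only [Cfsg.Spor.J4.extra, Set.mem_ofPred_eq, List.mem_cons, List.not_mem_nil, or_false] at hr
    rcases hr with rfl | rfl | rfl | rfl | rfl | rfl | rfl | rfl | rfl | rfl | rfl | rfl
    exacts [rel0, rel1, rel2, rel3, rel4, rel5, rel6, rel7, rel8, rel9, rel10, rel11]

/-- A representation in which `x` is not the identity. -/
theorem exists_rep : ∃ (M : Type) (_ : Group M) (ψ : Cfsg.Spor.J4 →* M),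
    ψ (PresentedGroup.of Cfsg.Spor.J4.Gen.x) ≠ 1 := by
  refine ⟨M112ˣ, inferInstance, PresentedGroup.toGroup rels_hold, ?_⟩
  rw [PresentedGroup.toGroup.of]
  exact ne_of_rep rep_x rep_one (by decide +kernel)

end CfsgLib.SporRecognition.J4Rep
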