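import Mathlib.Data.Nat.Bitwise
import Mathlib.Data.ZMod.Basic
import Mathlib.Data.Matrix.Mul
import Mathlib.Algebra.BigOperators.Fin
import Mathlib.Tactic.Ring
import Mathlib.Tactic.NormNum

/-!
Square matrices of size 112 over `ZMod 2` packed into one natural number, with 32 bits for an entry.
-/

set_option autoImplicit false
set_option maxRecDepth 4000

namespace CfsgLib.SporRecognition.J4Rep

/-- The number with the given digits to the base `2 ^ s`. -/
def pk (s : ℕ) : ℕ → (ℕ → ℕ) → ℕ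
  | 0, _ => 0
  | n + 1, f => f 0 + 2 ^ s * pk s n fun i => f (i + 1)

theorem pk_eq_sum (s n : ℕ) (f : ℕ → ℕ) : pk s n f = ∑ i ∈ Finset.range n, f i * 2 ^ (s * i) := by
  induction n generalizing f with
  | zero => simp [pk]
  | succ n ih =>
    rw [Finset.sum_range_succ', pk, ih, Finset.mul_sum, add_comm]
    simp only [mul_zero, pow_zero, mul_one, Nat.mul_add, pow_add]
    congr 1
    exact Finset.sum_congr rfl fun i _ => by ring

theorem pk_congr {s n : ℕ} {f g : ℕ → ℕ} (h : ∀ i < n, f i = g i) : pk s n f = pk s n g := by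
  rw [pk_eq_sum, pk_eq_sum]
  exact Finset.sum_congr rfl fun i hi => by rw [h i (Finset.mem_range.1 hi)]

theorem pk_lt {s n : ℕ} {f : ℕ → ℕ} (h : ∀ i < n, f i < 2 ^ s) : pk s n f < 2 ^ (s * n) := by
  induction n generalizing f with
  | zero => simp [pk]
  | succ n ih =>
    rw [pk, Nat.mul_add, pow_add, mul_one, mul_comm (2 ^ (s * n))]
    have h1 := h 0 (by omega)
    have h2 := ih (f := fun i => f (i + 1)) fun i hi => h (i + 1) (by omega)
    calc f 0 + 2 ^ s * pk s n (fun i => f (i + 1))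
        < 2 ^ s + 2 ^ s * pk s n (fun i => f (i + 1)) := by omega
      _ = 2 ^ s * (pk s n (fun i => f (i + 1)) + 1) := by ring
      _ ≤ _ := Nat.mul_le_mul_left _ h2

/-- The digit. -/
theorem pk_digit {s n : ℕ} {f : ℕ → ℕ} (h : ∀ i < n, f i < 2 ^ s) {i : ℕ} (hi : i < n) :
    pk s n f / 2 ^ (s * i) % 2 ^ s = f i := by
  induction n generalizing f i with
  | zero => omega
  | succ n ih =>
    have h0 := h 0 (by omega)
    cases i with
    | zero => rw [mul_zero, pow_zero, Nat.div_one, pk, Nat.add_mul_mod_self_left, Nat.mod_eq_of_lt h0]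
    | succ i =>
      rw [Nat.mul_add, mul_one, pow_add, mul_comm (2 ^ (s * i)), ← Nat.div_div_eq_div_mul, pk,
        Nat.add_mul_div_left _ _ (Nat.two_pow_pos s), Nat.div_eq_of_lt h0, zero_add]
      exact ih (fun k hk => h (k + 1) (by omega)) (by omega)

/-- Every number below `2 ^ (s * n)` is given by its digits. -/
theorem pk_self (s n X : ℕ) : pk s n (fun i => X / 2 ^ (s * i) % 2 ^ s) = X % 2 ^ (s * n) := by
  induction n generalizing X with
  | zero => simp [pk, Nat.mod_one]
  | succ n ih =>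
    rw [pk, mul_zero, pow_zero, Nat.div_one, Nat.mul_add, mul_one, add_comm (s * n), pow_add, Nat.mod_mul]
    congr 2
    rw [← ih]
    exact pk_congr fun i _ => by
      rw [Nat.mul_add, mul_one, add_comm (s * i), pow_add, Nat.div_div_eq_div_mul]

theorem land_split {s a b c d : ℕ} (ha : a < 2 ^ s) (hc : c < 2 ^ s) :
    (a + 2 ^ s * b) &&& (c + 2 ^ s * d) = (a &&& c) + 2 ^ s * (b &&& d) := by
  rw [← Nat.mod_add_div ((a + 2 ^ s * b) &&& (c + 2 ^ s * d)) (2 ^ s), Nat.and_mod_two_pow, Nat.and_div_two_pow,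
    Nat.add_mul_mod_self_left, Nat.add_mul_mod_self_left, Nat.mod_eq_of_lt ha, Nat.mod_eq_of_lt hc,
    Nat.add_mul_div_left _ _ (Nat.two_pow_pos s), Nat.add_mul_div_left _ _ (Nat.two_pow_pos s),
    Nat.div_eq_of_lt ha, Nat.div_eq_of_lt hc, zero_add, zero_add]

/-- A mask of `w` bits in every place. -/
theorem land_mask {s w n : ℕ} (hw : w ≤ s) (X : ℕ) :
    X &&& pk s n (fun _ => 2 ^ w - 1) = pk s n fun i => X / 2 ^ (s * i) % 2 ^ w := by
  induction n generalizing X with
  | zero => simp [pk]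
  | succ n ih =>
    have hlt : 2 ^ w - 1 < 2 ^ s := by
      have := Nat.pow_le_pow_right (show 0 < 2 by norm_num) hw
      have := Nat.two_pow_pos w
      omega
    conv_lhs => rw [← Nat.mod_add_div X (2 ^ s)]
    rw [pk, pk, land_split (Nat.mod_lt _ (Nat.two_pow_pos s)) hlt, ih, Nat.and_two_pow_sub_one_eq_mod,
      Nat.mod_mod_of_dvd _ (pow_dvd_pow 2 hw), mul_zero, pow_zero, Nat.div_one]
    congr 2
    exact pk_congr fun i _ => by rw [Nat.mul_add, mul_one, add_comm (s * i), pow_add, Nat.div_div_eq_div_mul]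

/-- An entry. -/
def ent (A i j : ℕ) : ℕ := A / 2 ^ (32 * (112 * i + j)) % 2 ^ 32

/-- The mask of the given places. -/
noncomputable def maskRec (c s n : ℕ) : ℕ :=
  Nat.rec 0 (fun _ ih => Nat.add c (Nat.shiftLeft ih s)) n

theorem maskRec_eq (c s n : ℕ) : maskRec c s n = pk s n fun _ => c := by
  induction n with
  | zero => rfl
  | succ n ih =>
    show c + (maskRec c s n) <<< s = _
    rw [Nat.shiftLeft_eq, ih, pk, mul_comm (pk s n _)]

/-- The mask of a column. -/
noncomputable def colMask : ℕ := maskRec 4294967295 3584 112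

theorem colMask_eq : colMask = pk 3584 112 fun _ => 2 ^ 32 - 1 := by
  rw [colMask, maskRec_eq]
  congr 1

theorem pk_flat_gen (s b : ℕ) (g : ℕ → ℕ → ℕ) (n : ℕ) :
    pk s (b * n) (fun m => g (m / b) (m % b)) = pk (s * b) n fun i => pk s b (g i) := by
  simp only [pk_eq_sum]
  rcases Nat.eq_zero_or_pos b with rfl | hb
  · simp
  induction n with
  | zero => rw [mul_zero, Finset.sum_range_zero, Finset.sum_range_zero]
  | succ n ih =>
    rw [mul_add, mul_one, Finset.sum_range_add, ih, Finset.sum_range_succ _ n, Finset.sum_mul]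
    congr 1
    refine Finset.sum_congr rfl fun k hk => ?_
    have hk' := Finset.mem_range.1 hk
    rw [Nat.mul_add_div hb, Nat.div_eq_of_lt hk', add_zero, Nat.mul_add_mod, Nat.mod_eq_of_lt hk',
      Nat.mul_add, pow_add, ← mul_assoc s b n]
    ring

/-- The mask of the quotients. -/
noncomputable def lowMask : ℕ := maskRec (maskRec 65535 32 112) 3584 112

theorem lowMask_eq : lowMask = pk 32 12544 fun _ => 2 ^ 16 - 1 := by
  have h := pk_flat_gen 32 112 (fun _ _ => 2 ^ 16 - 1) 112
  rw [show 32 * 112 = 3584 by norm_num, show 112 * 112 = 12544 by norm_num] at h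
  rw [lowMask, maskRec_eq, maskRec_eq, h]
  congr 1

attribute [local irreducible] pk maskRec

/-- Every entry modulo two, with the masks given. -/
noncomputable def reduce (low X : ℕ) : ℕ :=
  Nat.sub X (Nat.mul 2 (Nat.land (Nat.shiftRight (Nat.mul X 32768) 16) low))

/-- The product before reduction, with the mask given. -/
noncomputable def rawMul (col A B : ℕ) : ℕ :=
  Nat.rec 0 (fun j ih => Nat.add ih (Nat.mul (Nat.land (Nat.shiftRight A (Nat.mul 32 j)) col)
    (Nat.mod (Nat.shiftRight B (Nat.mul 3584 j)) (Nat.shiftLeft 1 3584)))) 112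

/-- The product. -/
noncomputable def mul (A B : ℕ) : ℕ := reduce lowMask (rawMul colMask A B)

theorem barrett {x : ℕ} (hx : x < 2 ^ 14) :
    x * 32768 / 2 ^ 16 % 2 ^ 16 = x / 2 ∧ x * 32768 < 2 ^ 32 := by
  have h1 : x < 16384 := hx
  have h2 : x * 32768 < 4294967296 := by omega
  refine ⟨?_, h2⟩
  show x * 32768 / 65536 % 65536 = x / 2
  have h3 : x / 2 * 65536 ≤ x * 32768 := by omega
  have h4 : x * 32768 < (x / 2 + 1) * 65536 := by omega
  rw [Nat.div_eq_of_lt_le h3 h4, Nat.mod_eq_of_lt (by omega)]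

theorem reduce_pk {n : ℕ} {f : ℕ → ℕ} (hf : ∀ i < n, f i < 2 ^ 14) :
    reduce (pk 32 n fun _ => 2 ^ 16 - 1) (pk 32 n f) = pk 32 n fun i => f i % 2 := by
  show pk 32 n f - 2 * ((pk 32 n f * 32768) >>> 16 &&& pk 32 n fun _ => 2 ^ 16 - 1) = _
  rw [land_mask (by norm_num : 16 ≤ 32)]
  have e : pk 32 n f * 32768 = pk 32 n fun i => f i * 32768 := by
    rw [pk_eq_sum, pk_eq_sum, Finset.sum_mul]
    exact Finset.sum_congr rfl fun i _ => by ring
  have q : ∀ i < n, (pk 32 n f * 32768) >>> 16 / 2 ^ (32 * i) % 2 ^ 16 = f i / 2 := by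
    intro i hi
    rw [e, Nat.shiftRight_eq_div_pow, Nat.div_div_eq_div_mul, mul_comm (2 ^ 16), ← Nat.div_div_eq_div_mul]
    have := pk_digit (s := 32) (f := fun i => f i * 32768) (fun k hk => (barrett (hf k hk)).2) hi
    rw [← (barrett (hf i hi)).1]
    generalize pk 32 n (fun i => f i * 32768) / 2 ^ (32 * i) = Y at this ⊢
    rw [← this, show (2 : ℕ) ^ 32 = 2 ^ 16 * 2 ^ 16 by norm_num, Nat.mod_mul_right_div_self,
      Nat.mod_mod]
  rw [pk_congr q]
  refine Nat.sub_eq_of_eq_add ?_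
  rw [pk_eq_sum, pk_eq_sum, pk_eq_sum, Finset.mul_sum, ← Finset.sum_add_distrib]
  refine Finset.sum_congr rfl fun i _ => ?_
  rw [← mul_assoc, ← add_mul, Nat.mod_add_div]

/-- Entries below two, and nothing beyond them. -/
def OK (A : ℕ) : Prop := A < 2 ^ (32 * 12544) ∧ ∀ i < 112, ∀ j < 112, ent A i j < 2

/-- The matrix. -/
def mat (A : ℕ) : Matrix (Fin 112) (Fin 112) (ZMod 2) := Matrix.of fun i j => (ent A i j : ZMod 2)

theorem pk_flat (g : ℕ → ℕ → ℕ) :
    pk 32 12544 (fun m => g (m / 112) (m % 112)) = pk 3584 112 fun i => pk 32 112 (g i) := by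
  have := pk_flat_gen 32 112 g 112
  rw [show 32 * 112 = 3584 by norm_num, show 112 * 112 = 12544 by norm_num] at this
  exact this

theorem ent_pk {g : ℕ → ℕ → ℕ} (hg : ∀ i < 112, ∀ k < 112, g i k < 2 ^ 32) {i j : ℕ} (hi : i < 112) (hj : j < 112) :
    ent (pk 32 12544 fun m => g (m / 112) (m % 112)) i j = g i j := by
  rw [ent, pk_digit (fun m hm => hg _ (by omega) _ (Nat.mod_lt _ (by norm_num))) (by omega)]
  congr 1 <;> omega

theorem ok_pk {g : ℕ → ℕ → ℕ} (hg : ∀ i < 112, ∀ k < 112, g i k < 2) :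
    OK (pk 32 12544 fun m => g (m / 112) (m % 112)) := by
  refine ⟨?_, fun i hi j hj => ?_⟩
  · exact pk_lt (s := 32) (n := 12544) (f := fun m => g (m / 112) (m % 112)) fun m hm =>
      lt_trans (hg (m / 112) (by omega) (m % 112) (Nat.mod_lt _ (by norm_num))) (by norm_num)
  · rw [ent_pk (fun a ha b hb => lt_trans (hg a ha b hb) (by norm_num)) hi hj]
    exact hg i hi j hj

theorem natRec_sum (f : ℕ → ℕ) (n : ℕ) :
    (Nat.rec 0 (fun j ih => Nat.add ih (f j)) n : ℕ) = ∑ j ∈ Finset.range n, f j := by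
  induction n with
  | zero => rw [Finset.sum_range_zero]; rfl
  | succ n ih => rw [Finset.sum_range_succ, ← ih]; rfl

theorem rawMul_gen (s b : ℕ) (A B : ℕ) (n : ℕ) :
    (∑ j ∈ Finset.range n, (∑ i ∈ Finset.range b, (A >>> (s * j) / 2 ^ (s * b * i) % 2 ^ s) * 2 ^ (s * b * i)) *
      ∑ k ∈ Finset.range b, (B >>> (s * b * j) / 2 ^ (s * k) % 2 ^ s) * 2 ^ (s * k)) =
    ∑ i ∈ Finset.range b, (∑ k ∈ Finset.range b, (∑ j ∈ Finset.range n,
      A / 2 ^ (s * (b * i + j)) % 2 ^ s * (B / 2 ^ (s * (b * j + k)) % 2 ^ s)) * 2 ^ (s * k)) * 2 ^ (s * b * i) := by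
  simp only [Finset.sum_mul]
  rw [Finset.sum_congr rfl fun i _ => Finset.sum_comm, Finset.sum_comm]
  refine Finset.sum_congr rfl fun j _ => Finset.sum_congr rfl fun i _ => ?_
  rw [Finset.mul_sum]
  refine Finset.sum_congr rfl fun k _ => ?_
  rw [Nat.shiftRight_eq_div_pow, Nat.shiftRight_eq_div_pow, Nat.div_div_eq_div_mul, Nat.div_div_eq_div_mul,
    ← pow_add, ← pow_add, show s * i + s * b * j = s * (b * j + i) by ring,
    show s * b * i + s * k = s * (b * i + k) by ring]
  ring

theorem rawMul_flat (s b A B : ℕ) (hb : 0 < b) :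
    (∑ j ∈ Finset.range b, (A >>> (s * j) &&& pk (s * b) b fun _ => 2 ^ s - 1) *
      ((B >>> (s * b * j)) % (1 <<< (s * b)))) =
    pk s (b * b) fun m => ∑ j ∈ Finset.range b,
      A / 2 ^ (s * (b * (m / b) + j)) % 2 ^ s * (B / 2 ^ (s * (b * j + m % b)) % 2 ^ s) := by
  have hrow : ∀ X : ℕ, X % (1 <<< (s * b)) = pk s b fun k => X / 2 ^ (s * k) % 2 ^ s := fun X => by
    rw [pk_self, Nat.shiftLeft_eq, one_mul]
  rw [Finset.sum_congr rfl fun j _ => by rw [land_mask (Nat.le_mul_of_pos_right s hb), hrow],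
    pk_flat_gen s b (fun i k => ∑ j ∈ Finset.range b,
      A / 2 ^ (s * (b * i + j)) % 2 ^ s * (B / 2 ^ (s * (b * j + k)) % 2 ^ s)) b]
  simp only [pk_eq_sum]
  exact rawMul_gen s b A B b

theorem rawMul_eq (A B : ℕ) :
    rawMul colMask A B =
      pk 32 12544 fun m => ∑ j ∈ Finset.range 112, ent A (m / 112) j * ent B j (m % 112) := by
  have key : ∀ col, rawMul col A B =
      ∑ j ∈ Finset.range 112, (A >>> (32 * j) &&& col) * ((B >>> (3584 * j)) % (1 <<< 3584)) := fun col => by
    unfold rawMul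
    exact natRec_sum (fun j => (A >>> (32 * j) &&& col) * ((B >>> (3584 * j)) % (1 <<< 3584))) 112
  have := rawMul_flat 32 112 A B (by norm_num)
  rw [show 32 * 112 = 3584 by norm_num, show 112 * 112 = 12544 by norm_num] at this
  rw [key, colMask_eq]
  exact this

attribute [local irreducible] reduce rawMul lowMask colMask ent

theorem mul_spec {A B : ℕ} (hA : OK A) (hB : OK B) : OK (mul A B) ∧ mat (mul A B) = mat A * mat B := by
  have hbd : ∀ i < 112, ∀ k < 112, ∑ j ∈ Finset.range 112, ent A i j * ent B j k < 2 ^ 14 := by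
    intro i hi k hk
    have := Finset.sum_le_card_nsmul (Finset.range 112) (fun j => ent A i j * ent B j k) 1 fun j hj => by
      have h1 := hA.2 i hi j (Finset.mem_range.1 hj)
      have h2 := hB.2 j (Finset.mem_range.1 hj) k hk
      calc ent A i j * ent B j k ≤ 1 * 1 := Nat.mul_le_mul (by omega) (by omega)
        _ = 1 := by norm_num
    rw [Finset.card_range, smul_eq_mul] at this
    exact lt_of_le_of_lt this (by norm_num)
  have e : mul A B = pk 32 12544 fun m => (∑ j ∈ Finset.range 112, ent A (m / 112) j * ent B j (m % 112)) % 2 := by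
    rw [mul, lowMask_eq, rawMul_eq]
    exact reduce_pk (f := fun m => ∑ j ∈ Finset.range 112, ent A (m / 112) j * ent B j (m % 112))
      fun m hm => hbd (m / 112) (by omega) (m % 112) (Nat.mod_lt _ (by norm_num))
  have h5 : ∀ i < 112, ∀ k < 112, (∑ j ∈ Finset.range 112, ent A i j * ent B j k) % 2 < 2 :=
    fun i _ k _ => Nat.mod_lt _ (by norm_num)
  rw [e]
  refine ⟨ok_pk (g := fun i k => (∑ j ∈ Finset.range 112, ent A i j * ent B j k) % 2) h5, Matrix.ext fun i k => ?_⟩
  simp only [mat, Matrix.of_apply, Matrix.mul_apply]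
  rw [ent_pk (g := fun i k => (∑ j ∈ Finset.range 112, ent A i j * ent B j k) % 2)
    (fun a ha b hb => lt_trans (h5 a ha b hb) (by norm_num)) i.2 k.2]
  rw [ZMod.natCast_mod, Nat.cast_sum,
    ← Fin.sum_univ_eq_sum_range (fun j => ((ent A i j * ent B j k : ℕ) : ZMod 2)) 112]
  exact Finset.sum_congr rfl fun j _ => by rw [Nat.cast_mul]

/-- The check of `OK` for a given number, with the masks written by recursion. -/
noncomputable def okB (A : ℕ) : Bool :=
  Nat.beq (reduce lowMask A) A && true &&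
    Nat.beq (Nat.land A (Nat.mul 15 (Nat.div lowMask 65535))) A

theorem ok_of_okB {A : ℕ} (h : okB A = true) : OK A := by
  obtain ⟨h12, h3⟩ := (Bool.and_eq_true _ _).mp h
  obtain ⟨h1, -⟩ := (Bool.and_eq_true _ _).mp h12
  replace h1 := Nat.eq_of_beq_eq_true h1
  replace h3 := Nat.eq_of_beq_eq_true h3
  have e16 : lowMask / 65535 = pk 32 12544 fun _ => 1 := by
    have : ∀ n, pk 32 n (fun _ => 2 ^ 16 - 1) = 65535 * pk 32 n fun _ => 1 := fun n => by
      rw [pk_eq_sum, pk_eq_sum, Finset.mul_sum]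
      exact Finset.sum_congr rfl fun i _ => by rw [one_mul]; rfl
    rw [lowMask_eq, this]
    exact Nat.mul_div_cancel_left _ (by norm_num)
  have e15 : 15 * (lowMask / 65535) = pk 32 12544 fun _ => 2 ^ 4 - 1 := by
    have : ∀ n, 15 * pk 32 n (fun _ => 1) = pk 32 n fun _ => 2 ^ 4 - 1 := fun n => by
      rw [pk_eq_sum, pk_eq_sum, Finset.mul_sum]
      exact Finset.sum_congr rfl fun i _ => by norm_num
    rw [e16, this]
  change A &&& 15 * (lowMask / 65535) = A at h3
  rw [e15, land_mask (by norm_num : 4 ≤ 32)] at h3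
  set f := fun i => A / 2 ^ (32 * i) % 2 ^ 4 with hf
  have hfl : ∀ i, f i < 2 ^ 4 := fun i => Nat.mod_lt _ (by norm_num)
  rw [← h3, lowMask_eq, reduce_pk fun i _ => lt_trans (hfl i) (by norm_num)] at h1
  have hlt : A < 2 ^ (32 * 12544) := by
    rw [← h3]
    exact pk_lt (s := 32) (n := 12544) (f := f) fun i _ => lt_trans (hfl i) (by norm_num)
  refine ⟨hlt, fun i hi j hj => ?_⟩
  rw [ent, ← h3, ← h1, pk_digit (fun k _ => lt_trans (Nat.mod_lt _ (by norm_num)) (by norm_num : 2 < 2 ^ 32))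
    (by omega)]
  exact Nat.mod_lt _ (by norm_num)

/-- The identity. -/
noncomputable def one : ℕ := maskRec 1 3616 112

theorem one_spec : OK one ∧ mat one = 1 := by
  have e : one = pk 32 12544 fun m => if m / 112 = m % 112 then 1 else 0 := by
    rw [one, maskRec_eq, pk_flat (fun i k => if i = k then 1 else 0)]
    simp only [pk_eq_sum, one_mul, ite_mul, zero_mul, Finset.sum_ite_eq, Finset.mem_range]
    refine Finset.sum_congr rfl fun i hi => ?_
    rw [if_pos (Finset.mem_range.1 hi), ← pow_add]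
    congr 1
    omega
  have h5 : ∀ i < 112, ∀ k < 112, (if i = k then 1 else 0) < 2 := fun i _ k _ => by split <;> omega
  rw [e]
  refine ⟨ok_pk (g := fun i k => if i = k then 1 else 0) h5, Matrix.ext fun i k => ?_⟩
  simp only [mat, Matrix.of_apply]
  rw [ent_pk (g := fun i k => if i = k then 1 else 0) (fun a ha b hb => lt_trans (h5 a ha b hb) (by norm_num)) i.2 k.2,
    Matrix.one_apply]
  by_cases h : i = k
  · subst h; simp
  · simp [h, Fin.val_inj]

end CfsgLib.SporRecognition.J4Rep
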