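import Cfsg.Agent.Lib.SporRecognition.J4Rep.Packed
import Cfsg.Agent.Lib.SporRecognition.J4Rep.DataX
import Cfsg.Agent.Lib.SporRecognition.J4Rep.DataY
import Cfsg.Agent.Lib.SporRecognition.J4Rep.DataT
import Cfsg.Prelude.Def_Spor_J4

/-! The three invertible matrices of degree 112 over `ZMod 2` and the tools for evaluating words in them. -/

set_option autoImplicit false
set_option maxRecDepth 100000
set_option Elab.async false

namespace CfsgLib.SporRecognition.J4Rep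

attribute [local irreducible] mul one mat okB ent matX invX matY invY matT invT

theorem mat_inj {A B : ℕ} (hA : OK A) (hB : OK B) (h : mat A = mat B) : A = B := by
  have key : ∀ C : ℕ, OK C → C = pk 32 12544 fun m => ent C (m / 112) (m % 112) := fun C hC => by
    conv_lhs => rw [← Nat.mod_eq_of_lt hC.1, ← pk_self]
    refine pk_congr fun m _ => ?_
    unfold ent
    rw [Nat.div_add_mod]
  rw [key A hA, key B hB]
  refine pk_congr fun m hm => ?_
  have hi : m / 112 < 112 := by omega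
  have hj : m % 112 < 112 := Nat.mod_lt _ (by norm_num)
  have e := congrFun (congrFun h ⟨m / 112, hi⟩) ⟨m % 112, hj⟩
  unfold mat at e
  simp only [Matrix.of_apply] at e
  have e' := congrArg ZMod.val e
  rwa [ZMod.val_natCast, ZMod.val_natCast, Nat.mod_eq_of_lt (hA.2 _ hi _ hj), Nat.mod_eq_of_lt (hB.2 _ hi _ hj)] at e'

/-- The ring of matrices. -/
abbrev M112 : Type := Matrix (Fin 112) (Fin 112) (ZMod 2)

/-- The packed number represents the unit. -/
def Rep (A : ℕ) (a : M112ˣ) : Prop := OK A ∧ mat A = (a : M112)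

theorem rep_mul {A B : ℕ} {a b : M112ˣ} (ha : Rep A a) (hb : Rep B b) : Rep (mul A B) (a * b) :=
  ⟨(mul_spec ha.1 hb.1).1, by rw [(mul_spec ha.1 hb.1).2, ha.2, hb.2, Units.val_mul]⟩

/-- Square. -/
noncomputable def pw2 (A : ℕ) : ℕ := mul A A
/-- Cube. -/
noncomputable def pw3 (A : ℕ) : ℕ := mul (pw2 A) A
/-- Fourth power. -/
noncomputable def pw4 (A : ℕ) : ℕ := pw2 (pw2 A)
/-- Fifth power. -/
noncomputable def pw5 (A : ℕ) : ℕ := mul (pw4 A) A
/-- Sixth power. -/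
noncomputable def pw6 (A : ℕ) : ℕ := pw2 (pw3 A)
/-- Eighth power. -/
noncomputable def pw8 (A : ℕ) : ℕ := pw2 (pw4 A)

theorem rep_pw2 {A : ℕ} {a : M112ˣ} (ha : Rep A a) : Rep (pw2 A) (a ^ 2) := by
  rw [pow_two]; exact rep_mul ha ha
theorem rep_pw3 {A : ℕ} {a : M112ˣ} (ha : Rep A a) : Rep (pw3 A) (a ^ 3) := by
  rw [pow_succ]; exact rep_mul (rep_pw2 ha) ha
theorem rep_pw4 {A : ℕ} {a : M112ˣ} (ha : Rep A a) : Rep (pw4 A) (a ^ 4) := by
  rw [show a ^ 4 = (a ^ 2) ^ 2 by rw [← pow_mul]]; exact rep_pw2 (rep_pw2 ha)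
theorem rep_pw5 {A : ℕ} {a : M112ˣ} (ha : Rep A a) : Rep (pw5 A) (a ^ 5) := by
  rw [pow_succ]; exact rep_mul (rep_pw4 ha) ha
theorem rep_pw6 {A : ℕ} {a : M112ˣ} (ha : Rep A a) : Rep (pw6 A) (a ^ 6) := by
  rw [show a ^ 6 = (a ^ 3) ^ 2 by rw [← pow_mul]]; exact rep_pw2 (rep_pw3 ha)
theorem rep_pw8 {A : ℕ} {a : M112ˣ} (ha : Rep A a) : Rep (pw8 A) (a ^ 8) := by
  rw [show a ^ 8 = (a ^ 4) ^ 2 by rw [← pow_mul]]; exact rep_pw2 (rep_pw4 ha)

/-- Twelfth power. -/
noncomputable def pw12 (A : ℕ) : ℕ := pw2 (pw6 A)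
/-- Twenty-third power. -/
noncomputable def pw23 (A : ℕ) : ℕ := mul (mul (pw12 A) (pw8 A)) (pw3 A)
theorem rep_pw12 {A : ℕ} {a : M112ˣ} (ha : Rep A a) : Rep (pw12 A) (a ^ 12) := by
  rw [show a ^ 12 = (a ^ 6) ^ 2 by rw [← pow_mul]]; exact rep_pw2 (rep_pw6 ha)
theorem rep_pw23 {A : ℕ} {a : M112ˣ} (ha : Rep A a) : Rep (pw23 A) (a ^ 23) := by
  rw [show a ^ 23 = a ^ 12 * a ^ 8 * a ^ 3 by rw [← pow_add, ← pow_add]]
  exact rep_mul (rep_mul (rep_pw12 ha) (rep_pw8 ha)) (rep_pw3 ha)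

theorem eq_one_of_rep {A : ℕ} {a : M112ˣ} (ha : Rep A a) (h : Nat.beq A one = true) : a = 1 := by
  refine Units.ext ?_
  rw [← ha.2, Nat.eq_of_beq_eq_true h, Units.val_one]
  exact one_spec.2

theorem ne_of_rep {A B : ℕ} {a b : M112ˣ} (ha : Rep A a) (hb : Rep B b) (h : Nat.beq A B = false) : a ≠ b := by
  intro e
  have := mat_inj ha.1 hb.1 (ha.2.trans ((congrArg Units.val e).trans hb.2.symm))
  rw [this] at h
  simp at h

theorem rep_one : Rep one 1 := ⟨one_spec.1, one_spec.2.trans Units.val_one.symm⟩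

/-- The check of a matrix with its inverse. -/
noncomputable def pairB (A B : ℕ) : Bool :=
  okB A && okB B && Nat.beq (mul A B) one && Nat.beq (mul B A) one

theorem pairX : pairB matX invX = true := by decide +kernel
theorem pairY : pairB matY invY = true := by decide +kernel
theorem pairT : pairB matT invT = true := by decide +kernel

theorem pair_spec {A B : ℕ} (h : pairB A B = true) :
    OK A ∧ OK B ∧ mat A * mat B = 1 ∧ mat B * mat A = 1 := by
  unfold pairB at h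
  simp only [Bool.and_eq_true] at h
  obtain ⟨⟨⟨hA, hB⟩, h1⟩, h2⟩ := h
  refine ⟨ok_of_okB hA, ok_of_okB hB, ?_, ?_⟩
  · rw [← (mul_spec (ok_of_okB hA) (ok_of_okB hB)).2, Nat.eq_of_beq_eq_true h1, one_spec.2]
  · rw [← (mul_spec (ok_of_okB hB) (ok_of_okB hA)).2, Nat.eq_of_beq_eq_true h2, one_spec.2]

open Cfsg.Spor.J4 in
/-- The images of the generators. -/
noncomputable def img : Gen → M112ˣ
  | .x => ⟨mat matX, mat invX, (pair_spec pairX).2.2.1, (pair_spec pairX).2.2.2⟩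
  | .y => ⟨mat matY, mat invY, (pair_spec pairY).2.2.1, (pair_spec pairY).2.2.2⟩
  | .t => ⟨mat matT, mat invT, (pair_spec pairT).2.2.1, (pair_spec pairT).2.2.2⟩

theorem rep_x : Rep matX (img .x) := ⟨(pair_spec pairX).1, rfl⟩
theorem rep_y : Rep matY (img .y) := ⟨(pair_spec pairY).1, rfl⟩
theorem rep_t : Rep matT (img .t) := ⟨(pair_spec pairT).1, rfl⟩
theorem rep_xi : Rep invX (img .x)⁻¹ := ⟨(pair_spec pairX).2.1, rfl⟩
theorem rep_yi : Rep invY (img .y)⁻¹ := ⟨(pair_spec pairY).2.1, rfl⟩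
theorem rep_ti : Rep invT (img .t)⁻¹ := ⟨(pair_spec pairT).2.1, rfl⟩

end CfsgLib.SporRecognition.J4Rep
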